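import Cfsg.Agent.Chev.Main
import Cfsg.Agent.Chev.Rules
import Cfsg.Agent.ChevGrp.Bridge
import Cfsg.Agent.ChevGrp.NConj

/-!
Generation of Chevalley groups by the monomial subgroup and few root subgroups: kernel-checkable
closure of a set of roots under simple reflections and under suitable commutators.
-/

set_option autoImplicit false

open scoped MatrixGroups
open Cfsg.Lie

namespace Cfsg.Agent.Spec.ChevShort

/-- One round of closing a list of roots under the simple reflections. -/
def grow (D : ChevalleyDatum) (l : List ℕ) : List ℕ :=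
  (l ++ (List.range D.rank).flatMap fun a => l.map fun r => D.reflectRoot a r).eraseDups

/-- `m` rounds of `grow`. -/
def growN (D : ChevalleyDatum) : ℕ → List ℕ → List ℕ
  | 0, l => l
  | m + 1, l => growN D m (grow D l)

/-- Simple roots reached from those of a list along two reflections. -/
def adj (D : ChevalleyDatum) (l : List ℕ) : List ℕ :=
  l ++ (List.range D.rank).flatMap fun a => (List.range D.rank).filterMap fun b =>
    if D.reflectRoot a (D.reflectRoot b (D.simple a)) == D.simple b && l.contains (D.simple a)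
      then some (D.simple b) else none

/-- `m` rounds of `adj`. -/
def adjN (D : ChevalleyDatum) : ℕ → List ℕ → List ℕ
  | 0, l => l
  | m + 1, l => adjN D m (adj D l)

/-- Roots obtained as single commutator term with constant in `cs`. -/
def commRoots (D : ChevalleyDatum) (cs : List ℤ) (l : List ℕ) : List ℕ :=
  l.flatMap fun r => l.filterMap fun s =>
    match D.commTerms r s with
    | [(k, c, 1, 1)] => if s != r && s != D.neg r && decide (k < D.nroots) && cs.contains c then some k else none
    | _ => none

/-- The check: all simple roots are reached from `start`. -/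
def reachAll (D : ChevalleyDatum) (cs : List ℤ) (m : ℕ) (start : List ℕ) : Bool :=
  let S := growN D m start
  let T := adjN D D.rank (growN D m (S ++ commRoots D cs S))
  (List.range D.rank).all fun j => T.contains (D.simple j)

section

variable {D : ChevalleyDatum} {K : Type*} [Field K]

theorem le_of_reachAll (hD : D ∈ [chevG2, chevB2, chevD4, chevF4, chevE6, chevE7, chevE8])
    (M : Subgroup (GL D.Idx K)) (hN : D.monomialSubgroup K ≤ M) (cs : List ℤ)
    (hcs : ∀ c ∈ cs, (c : K) ≠ 0) (m : ℕ) (start : List ℕ)
    (hstart : ∀ r ∈ start, r < D.nroots ∧ D.rootSubgroup K r ≤ M)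
    (hchk : reachAll D cs m start = true) : D.group K ≤ M := by
  classical
  have hS := Chev.rules_of_mem K hD
  obtain ⟨len, hR⟩ := hS.root
  obtain ⟨C, hV⟩ := Chev.exists_valid hD
  let P : ℕ → Prop := fun r => r < D.nroots ∧ ∀ g : GL D.Idx K, ∀ t : K,
    (g : Matrix D.Idx D.Idx K) = D.x K r t → g ∈ M
  have hrefl : ∀ a < D.rank, ∀ r, P r → P (D.reflectRoot a r) := by
    intro a ha r hr
    refine ⟨hR.reflect_lt a ha r hr.1, fun g u hg => ?_⟩
    obtain ⟨η, hη, -, hconj, -⟩ := hS.nMat_simple a ha
    have hη0 : ((η r : ℤ) : K) * ((η r : ℤ) : K) = 1 := by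
      rcases hη r hr.1 with e | e <;> rw [e] <;> simp
    set n : GL D.Idx K := (ChevGrp.glSys hS).nEl (D.simple a) 1 with hn
    have hnval : (n : Matrix D.Idx D.Idx K) = D.nMat K (D.simple a) 1 :=
      (ChevGrp.eq_nEl_iff hS hR n (hR.simple_lt a ha) 1).2 rfl
    have hnM : n ∈ M := hN (Subgroup.mem_sup_right
      (Subgroup.subset_closure ⟨_, hR.simple_lt a ha, hnval⟩))
    set y : GL D.Idx K := ChevGrp.xGL D K r ((η r : K) * u) with hy
    have hyM : y ∈ M := hr.2 y _ (ChevGrp.val_xGL hS r _)
    have e : g * n = n * y := by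
      apply Units.ext
      rw [Units.val_mul, Units.val_mul, hg, hnval, hy, ChevGrp.val_xGL hS, hconj r hr.1, ← mul_assoc,
        hη0, one_mul]
    rw [eq_mul_inv_of_mul_eq e]
    exact mul_mem (mul_mem hnM hyM) (inv_mem hnM)
  have hgrow : ∀ l : List ℕ, (∀ r ∈ l, P r) → ∀ r ∈ grow D l, P r := by
    intro l hl r hr
    simp only [grow, List.mem_eraseDups, List.mem_append, List.mem_flatMap, List.mem_range,
      List.mem_map] at hr
    rcases hr with hr | ⟨a, ha, s, hs, rfl⟩
    · exact hl r hr
    · exact hrefl a ha s (hl s hs)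
  have hgrowN : ∀ (m : ℕ) (l : List ℕ), (∀ r ∈ l, P r) → ∀ r ∈ growN D m l, P r := by
    intro m
    induction m with
    | zero => exact fun l hl => hl
    | succ m ih => exact fun l hl => ih _ (hgrow l hl)
  have hadjN : ∀ (m : ℕ) (l : List ℕ), (∀ r ∈ l, P r) → ∀ r ∈ adjN D m l, P r := by
    intro m
    induction m with
    | zero => exact fun l hl => hl
    | succ m ih =>
      intro l hl
      refine ih _ fun r hr => ?_
      simp only [adj, List.mem_append, List.mem_flatMap, List.mem_range, List.mem_filterMap] at hr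
      rcases hr with hr | ⟨a, ha, b, hb, e⟩
      · exact hl r hr
      · split_ifs at e with h
        simp only [Bool.and_eq_true, beq_iff_eq, List.contains_iff_mem] at h
        rw [Option.some.injEq] at e
        rw [← e, ← h.1]
        exact hrefl a ha _ (hrefl b hb _ (hl _ h.2))
  have hcomm : ∀ l : List ℕ, (∀ r ∈ l, P r) → ∀ k ∈ commRoots D cs l, P k := by
    intro l hl k hk
    simp only [commRoots, List.mem_flatMap, List.mem_filterMap] at hk
    obtain ⟨r, hr, s, hs, e⟩ := hk
    split at e
    · next k' c hterms =>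
      split_ifs at e with hc
      simp only [Bool.and_eq_true, bne_iff_ne, decide_eq_true_eq, List.contains_iff_mem] at hc
      obtain ⟨⟨⟨hsr, hsn⟩, hk'⟩, hc⟩ := hc
      rw [Option.some.injEq] at e
      subst e
      refine ⟨hk', fun g w hg => ?_⟩
      have hcK : (c : K) ≠ 0 := hcs c hc
      set t : K := -(w / (c : K)) with ht
      set X : GL D.Idx K := ChevGrp.xGL D K r t with hX
      set Y : GL D.Idx K := ChevGrp.xGL D K s 1 with hY
      have hXM : X ∈ M := (hl r hr).2 X _ (ChevGrp.val_xGL hS r _)
      have hYM : Y ∈ M := (hl s hs).2 Y _ (ChevGrp.val_xGL hS s _)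
      have e : g = (X * Y)⁻¹ * (Y * X) := by
        rw [eq_inv_mul_iff_mul_eq]
        apply Units.ext
        have hw : -t = w / (c : K) := by rw [ht, neg_neg]
        have hword : D.wordMat K (D.commWord K r s t 1) = D.x K k' w := by
          simp only [ChevalleyDatum.commWord, hterms, ChevalleyDatum.wordMat, List.map_cons, List.map_nil,
            List.prod_cons, List.prod_nil, mul_one, pow_one, hw]
          rw [mul_div_cancel₀ w hcK]
        simp only [Units.val_mul, hX, hY, ChevGrp.val_xGL hS, hg]
        rw [hS.comm r (hl r hr).1 s (hl s hs).1 hsr hsn t 1, hword]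
      rw [e]
      exact mul_mem (inv_mem (mul_mem hXM hYM)) (mul_mem hYM hXM)
    · simp at e
  have hbase : ∀ r ∈ start, P r := fun r hr => ⟨(hstart r hr).1, fun g t hg =>
    (hstart r hr).2 (Subgroup.subset_closure ⟨t, hg⟩)⟩
  have hsimple : ∀ j < D.rank, P (D.simple j) := by
    intro j hj
    simp only [reachAll, List.all_eq_true, List.mem_range, List.contains_iff_mem] at hchk
    refine hadjN _ _ (hgrowN _ _ fun r hr => ?_) _ (hchk j hj)
    rcases List.mem_append.1 hr with hr | hr
    · exact hgrowN _ _ hbase r hr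
    · exact hcomm _ (hgrowN _ _ hbase) r hr
  have hall : ∀ r < D.nroots, P r := hV.root_induction hsimple fun a ha r hr hP => by
    rw [hV.w_eq ha hr]; exact hrefl a ha r hP
  rw [ChevGrp.group_eq hS, ChevGrp.Sys.Gbar, Subgroup.closure_le]
  rintro g ⟨r, hr, t, rfl⟩
  exact (hall r hr).2 _ t (ChevGrp.val_xGL hS r t)

end

end Cfsg.Agent.Spec.ChevShort
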