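import Cfsg.Agent.Coxeter.Faithful

/-!
Kernel-checkable computation of the centre of a Coxeter group with a certified tower, and of
membership of products in a subgroup.
-/

set_option autoImplicit false

namespace Cfsg.Agent.Spec.CoxCenter

open CoxTower

variable {G : Type*} [Group G] {mm : ℕ → ℕ → ℕ}

/-- Candidates for the normal forms `x` with `x * σ s = s * x` for all generators `s`. -/
def solve : List Level → (ℕ → ℕ) → List ℕ
  | [], _ => [0]
  | L :: Ls, σ => (List.range L.N).flatMap fun j =>
      if (List.range Ls.length).all (fun s =>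
          L.tgt Ls.length j (σ s) == j && (L.lab Ls.length j (σ s)).isSome) then
        (solve Ls (fun s => (L.lab Ls.length j (σ s)).getD 0)).map fun x => j + L.N * x
      else []

/-- Left multiplication of a normal form by a generator. -/
def lmul (Ls : List Level) (s x : ℕ) : ℕ := actWord Ls (s :: formWord Ls x) 0

/-- The normal forms of the central elements. -/
def centralList (Ls : List Level) : List ℕ :=
  (solve Ls id).filter fun x => decide (x < card Ls) &&
    (List.range Ls.length).all fun s => act Ls s x == lmul Ls s x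

/-- Normal forms generated by a straight-line program. -/
def progRun (Ls : List Level) : List ℕ → List (ℕ × ℕ) → List ℕ
  | xs, [] => xs
  | xs, (a, b) :: p =>
      progRun Ls (xs ++ [actWord Ls (formWord Ls (xs.getD a 0) ++ formWord Ls (xs.getD b 0)) 0]) p

theorem card_pos : ∀ {Ls : List Level}, check mm Ls = true → 0 < card Ls
  | [], _ => by simp [card]
  | L :: Ls, h => by
    obtain ⟨h1, -, h3⟩ := check_cons h
    exact Nat.mul_pos (tableOK_of_check h1).pos (card_pos h3)

theorem Rels.tail {g : ℕ → G} {L : Level} {Ls : List Level} (R : Rels mm g (L :: Ls).length) :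
    Rels mm g Ls.length :=
  ⟨fun a ha => R.sq a (by simp; omega), fun a b ha hb => R.rel a b (by simp; omega) (by simp; omega)⟩

theorem elem_lmul (g : ℕ → G) (hm : ∀ a, mm a a = 1) {Ls : List Level} (hc : check mm Ls = true)
    (R : Rels mm g Ls.length) {s x : ℕ} (hs : s < Ls.length) (hx : x < card Ls) :
    lmul Ls s x < card Ls ∧ elem g Ls (lmul Ls s x) = g s * elem g Ls x := by
  have hw : ∀ a ∈ s :: formWord Ls x, a < Ls.length := by
    intro a ha
    rcases List.mem_cons.1 ha with rfl | ha
    · exact hs
    · exact formWord_lt hc x hx a ha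
  refine ⟨actWord_mem (fun t ht => act_lt hc t ht) hw (card_pos hc), ?_⟩
  rw [lmul, ← elem_actWord g hm hc R _ hw 0 (card_pos hc), elem_zero, one_mul, wprod_cons,
    ← elem_eq_formWord]

theorem solve_complete (g : ℕ → G) (hm : ∀ a, mm a a = 1) : ∀ {Ls : List Level}, check mm Ls = true →
    Rels mm g Ls.length → (∀ s < Ls.length, g s ≠ 1) → Set.InjOn (elem g Ls) (Set.Iio (card Ls)) →
    ∀ σ : ℕ → ℕ, (∀ s < Ls.length, σ s < Ls.length) → ∀ x < card Ls,
      (∀ s < Ls.length, elem g Ls x * g (σ s) = g s * elem g Ls x) → x ∈ solve Ls σ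
  | [], _, _, _, _, σ, _, x, hx, _ => by simp [card] at hx; simp [solve, hx]
  | L :: Ls, h, R, hg, hinj, σ, hσ, x, hx, hcomm => by
    obtain ⟨h1, -, h3⟩ := check_cons h
    have T := tableOK_of_check h1
    have R' := Rels.tail R
    have hg' : ∀ s < Ls.length, g s ≠ 1 := fun s hs => hg s (by simp; omega)
    have hlow : ∀ j < L.N, ∀ r < card Ls, j + L.N * r < card (L :: Ls) := by
      intro j hj r hr
      calc j + L.N * r < L.N + L.N * r := by omega
        _ = L.N * (r + 1) := by ring
        _ ≤ _ := Nat.mul_le_mul_left _ hr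
    have hinj' : Set.InjOn (elem g Ls) (Set.Iio (card Ls)) := by
      intro a ha b hb e
      have := hinj (hlow 0 T.pos a ha) (hlow 0 T.pos b hb)
        (by simp [elem, Nat.mul_div_right _ T.pos, Nat.mul_mod_right, rep_zero, e])
      simpa [T.pos.ne'] using this
    have hj := Nat.mod_lt x T.pos
    have hdiv : x / L.N < card Ls := Nat.div_lt_of_lt_mul hx
    have key : ∀ s < Ls.length, L.tgt Ls.length (x % L.N) (σ s) = x % L.N ∧
        ∃ t, L.lab Ls.length (x % L.N) (σ s) = some t ∧ t < Ls.length ∧
          elem g Ls (x / L.N) * g t = g s * elem g Ls (x / L.N) := by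
      intro s hs
      have hσs : σ s < Ls.length + 1 := hσ s (by simp; omega)
      have e := hcomm s (by simp; omega)
      rw [elem_act g hm h R (σ s) hσs x hx] at e
      obtain ⟨hy, ey⟩ := elem_lmul g hm h3 R' hs hdiv
      have e' : g s * elem g (L :: Ls) x = elem g (L :: Ls) (x % L.N + L.N * lmul Ls s (x / L.N)) := by
        simp only [elem]
        rw [Nat.add_mul_mod_self_left, Nat.mod_mod, Nat.add_mul_div_left _ _ T.pos,
          Nat.div_eq_of_lt hj, zero_add, ey, mul_assoc]
      rw [e'] at e
      have hact := hinj (act_lt h (σ s) hσs x hx) (hlow _ hj _ hy) e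
      have htl := T.tgt_lt _ hj (σ s) hσs
      simp only [act] at hact
      cases hl : L.lab Ls.length (x % L.N) (σ s) with
      | none =>
        exfalso
        simp only [hl] at hact
        have := congrArg (· / L.N) hact
        simp only [Nat.add_mul_div_left _ _ T.pos, Nat.div_eq_of_lt htl, Nat.div_eq_of_lt hj,
          zero_add] at this
        rw [← this] at ey
        exact hg' s hs (mul_eq_right.1 ey.symm)
      | some t =>
        simp only [hl] at hact
        have h1' := congrArg (· % L.N) hact
        have h2' := congrArg (· / L.N) hact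
        simp only [Nat.add_mul_div_left _ _ T.pos, Nat.div_eq_of_lt htl, Nat.div_eq_of_lt hj,
          zero_add] at h2'
        simp only [Nat.add_mul_mod_self_left, Nat.mod_eq_of_lt htl, Nat.mod_mod] at h1'
        have ht := T.lab_lt _ hj (σ s) hσs t hl
        exact ⟨h1', t, rfl, ht, by rw [elem_act g hm h3 R' t ht _ hdiv, h2', ey]⟩
    simp only [solve, List.mem_flatMap, List.mem_range]
    refine ⟨x % L.N, hj, ?_⟩
    rw [if_pos]
    · refine List.mem_map.2 ⟨x / L.N, solve_complete g hm h3 R' hg' hinj' _ ?_ _ hdiv ?_, Nat.mod_add_div x L.N⟩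
      · intro s hs
        obtain ⟨-, t, ht, ht', -⟩ := key s hs
        simp [ht, ht']
      · intro s hs
        obtain ⟨-, t, ht, -, he⟩ := key s hs
        simpa [ht] using he
    · simp only [List.all_eq_true, List.mem_range, Bool.and_eq_true, beq_iff_eq]
      intro s hs
      obtain ⟨h1', t, ht, -, -⟩ := key s hs
      exact ⟨h1', by simp [ht]⟩

variable {n : ℕ} (M : CoxeterMatrix (Fin n)) {Ls : List Level}

theorem elem_injOn (hm : ∀ a, mm a a = 1) (hc : check mm Ls = true) (hn : Ls.length = n)
    (hM : ∀ i j : Fin n, M i j = mm i.val j.val) :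
    Set.InjOn (elem (gen M) Ls) (Set.Iio (card Ls)) := by
  obtain ⟨f, -, -, hf⟩ := exists_orbit M hm hc hn hM
  have hR : Rels mm (gen M) Ls.length := by rw [hn]; exact rels M hM
  suffices ∀ x < card Ls, f (elem (gen M) Ls x) = x by
    intro a ha b hb e
    rw [← this a ha, ← this b hb, e]
  intro x hx
  obtain ⟨w, hw, e⟩ := exists_word hc x hx
  rw [← e, ← elem_actWord (gen M) hm hc hR w hw 0 (card_pos hc), elem_zero, one_mul]
  exact hf w (by simpa [hn] using hw)

theorem exists_elem (hm : ∀ a, mm a a = 1) (hc : check mm Ls = true) (hn : Ls.length = n)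
    (hM : ∀ i j : Fin n, M i j = mm i.val j.val) (y : M.Group) :
    ∃ x < card Ls, elem (gen M) Ls x = y := by
  have hR : Rels mm (gen M) Ls.length := by rw [hn]; exact rels M hM
  obtain ⟨v, rfl⟩ := M.toCoxeterSystem.wordProd_surjective y
  have hw : ∀ a ∈ v.map Fin.val, a < Ls.length := by
    intro a ha
    obtain ⟨i, -, rfl⟩ := List.mem_map.1 ha
    omega
  refine ⟨actWord Ls (v.map Fin.val) 0, actWord_mem (fun s hs => act_lt hc s hs) hw (card_pos hc), ?_⟩
  rw [← elem_actWord (gen M) hm hc hR _ hw 0 (card_pos hc), elem_zero, one_mul]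
  simp [wprod, CoxeterSystem.wordProd, List.map_map, Function.comp_def, gen_val]

theorem gen_ne_one {s : ℕ} (hs : s < n) : gen M s ≠ 1 := by
  intro e
  simp only [gen, dif_pos hs] at e
  have h1 := M.toCoxeterSystem.length_simple ⟨s, hs⟩
  rw [show M.toCoxeterSystem.simple ⟨s, hs⟩ = M.simple ⟨s, hs⟩ from rfl, e,
    M.toCoxeterSystem.length_one] at h1
  exact zero_ne_one h1

theorem elem_pow_word (hm : ∀ a, mm a a = 1) (hc : check mm Ls = true) (hn : Ls.length = n)
    (hM : ∀ i j : Fin n, M i j = mm i.val j.val) (e : ℕ) :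
    elem (gen M) Ls (actWord Ls ((List.replicate e (List.range n)).flatten) 0) =
      ((List.finRange n).map M.simple).prod ^ e := by
  have hR : Rels mm (gen M) Ls.length := by rw [hn]; exact rels M hM
  rw [prod_finRange, ← elemOfWord_pow, ← elem_actWord (gen M) hm hc hR _ ?_ 0 (card_pos hc),
    elem_zero, one_mul]
  · rfl
  · intro a ha
    obtain ⟨l, hl, hal⟩ := List.mem_flatten.mp ha
    rw [List.eq_of_mem_replicate hl] at hal
    exact hn ▸ List.mem_range.mp hal

/-- Centre of a certified Coxeter group. -/
theorem center_of_check (hm : ∀ a, mm a a = 1) (hc : check mm Ls = true) (hn : Ls.length = n)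
    (hM : ∀ i j : Fin n, M i j = mm i.val j.val) (m h : ℕ)
    (hchk : ((centralList Ls).toFinset.card == m && (centralList Ls).all (fun x =>
      (List.range h).any fun e =>
        actWord Ls ((List.replicate e (List.range n)).flatten) 0 == x)) = true) :
    Nat.card (Subgroup.center M.Group) = m ∧
      Subgroup.center M.Group ≤ Subgroup.zpowers ((List.finRange n).map M.simple).prod := by
  simp only [Bool.and_eq_true, beq_iff_eq, List.all_eq_true, List.any_eq_true, List.mem_range] at hchk
  obtain ⟨hcard, hpow⟩ := hchk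
  have hR : Rels mm (gen M) Ls.length := by rw [hn]; exact rels M hM
  have hinj := elem_injOn M hm hc hn hM
  have hset : (Subgroup.center M.Group : Set M.Group) = elem (gen M) Ls '' {x | x ∈ centralList Ls} := by
    ext y
    constructor
    · intro hy
      obtain ⟨x, hx, rfl⟩ := exists_elem M hm hc hn hM y
      refine ⟨x, List.mem_filter.2 ⟨solve_complete _ hm hc hR (fun s hs => gen_ne_one M (hn ▸ hs))
        hinj id (fun _ h => h) x hx (fun s _ => (Subgroup.mem_center_iff.1 hy _).symm), ?_⟩, rfl⟩
      simp only [Bool.and_eq_true, decide_eq_true_eq, List.all_eq_true, List.mem_range, beq_iff_eq]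
      refine ⟨hx, fun s hs => ?_⟩
      obtain ⟨hy', ey⟩ := elem_lmul (gen M) hm hc hR hs hx
      refine hinj (act_lt hc s hs x hx) hy' ?_
      rw [← elem_act _ hm hc hR s hs x hx, ey]
      exact (Subgroup.mem_center_iff.1 hy _).symm
    · rintro ⟨x, hx, rfl⟩
      obtain ⟨-, hx⟩ := List.mem_filter.1 hx
      simp only [Bool.and_eq_true, decide_eq_true_eq, List.all_eq_true, List.mem_range, beq_iff_eq] at hx
      have key : ∀ i : Fin n, M.simple i ∈ Subgroup.centralizer {elem (gen M) Ls x} := by
        intro i
        have hi : i.val < Ls.length := hn ▸ i.isLt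
        obtain ⟨-, ey⟩ := elem_lmul (gen M) hm hc hR hi hx.1
        rw [Subgroup.mem_centralizer_singleton_iff, ← gen_val, ← ey, ← hx.2 _ hi,
          elem_act _ hm hc hR _ hi x hx.1]
      have htop : Subgroup.centralizer {elem (gen M) Ls x} = ⊤ := by
        rw [eq_top_iff, ← M.toCoxeterSystem.subgroup_closure_range_simple, Subgroup.closure_le]
        rintro _ ⟨i, rfl⟩
        exact key i
      exact Subgroup.mem_center_iff.2 fun g =>
        (Subgroup.mem_centralizer_singleton_iff.1 (htop ▸ Subgroup.mem_top g))
  constructor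
  · rw [← SetLike.coe_sort_coe, Nat.card_coe_set_eq, hset,
      (hinj.mono ?_).ncard_image, ← List.coe_toFinset, Set.ncard_coe_finset, hcard]
    intro x hx
    have := (List.mem_filter.1 hx).2
    simp only [Bool.and_eq_true, decide_eq_true_eq] at this
    exact this.1
  · intro y hy
    obtain ⟨x, hx, rfl⟩ : y ∈ elem (gen M) Ls '' {x | x ∈ centralList Ls} := hset ▸ hy
    obtain ⟨e, -, rfl⟩ := hpow x hx
    rw [elem_pow_word M hm hc hn hM]
    exact Subgroup.npow_mem_zpowers _ _

theorem progRun_mem (g : ℕ → G) (hm : ∀ a, mm a a = 1) (hc : check mm Ls = true)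
    (R : Rels mm g Ls.length) (H : Subgroup G) : ∀ (p : List (ℕ × ℕ)) (xs : List ℕ),
      (∀ x ∈ xs, x < card Ls ∧ elem g Ls x ∈ H) →
      ∀ x ∈ progRun Ls xs p, x < card Ls ∧ elem g Ls x ∈ H
  | [], _, h => h
  | (a, b) :: p, xs, h => by
    have hget : ∀ k, xs.getD k 0 < card Ls ∧ elem g Ls (xs.getD k 0) ∈ H := by
      intro k
      rcases lt_or_ge k xs.length with hk | hk
      · rw [List.getD_eq_getElem _ _ hk]; exact h _ (List.getElem_mem hk)
      · rw [List.getD_eq_default _ _ hk, elem_zero]; exact ⟨card_pos hc, one_mem H⟩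
    refine progRun_mem g hm hc R H p _ ?_
    intro x hx
    rcases List.mem_append.1 hx with hx | hx
    · exact h x hx
    · have hw : ∀ c ∈ formWord Ls (xs.getD a 0) ++ formWord Ls (xs.getD b 0), c < Ls.length := by
        intro c hc'
        rcases List.mem_append.1 hc' with hc' | hc'
        · exact formWord_lt hc _ (hget a).1 c hc'
        · exact formWord_lt hc _ (hget b).1 c hc'
      rw [List.mem_singleton.1 hx]
      refine ⟨actWord_mem (fun s hs => act_lt hc s hs) hw (card_pos hc), ?_⟩
      rw [← elem_actWord g hm hc R _ hw 0 (card_pos hc), elem_zero, one_mul, wprod_append,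
        ← elem_eq_formWord, ← elem_eq_formWord]
      exact mul_mem (hget a).2 (hget b).2

/-- The Coxeter element and the simple reflections in `T` generate. -/
theorem closure_eq_top_of_check (hm : ∀ a, mm a a = 1) (hc : check mm Ls = true) (hn : Ls.length = n)
    (hM : ∀ i j : Fin n, M i j = mm i.val j.val) (T : List (Fin n)) (p : List (ℕ × ℕ))
    (hchk : (List.range n).all (fun s =>
      (progRun Ls (actWord Ls (List.range n) 0 :: T.map (fun i => act Ls i.val 0)) p).contains
        (act Ls s 0)) = true) :
    Subgroup.closure (({((List.finRange n).map M.simple).prod} : Set M.Group) ∪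
      {y | ∃ i ∈ T, y = M.simple i}) = ⊤ := by
  simp only [List.all_eq_true, List.mem_range, List.contains_iff_mem] at hchk
  have hR : Rels mm (gen M) Ls.length := by rw [hn]; exact rels M hM
  set H := Subgroup.closure (({((List.finRange n).map M.simple).prod} : Set M.Group) ∪
    {y | ∃ i ∈ T, y = M.simple i})
  have hs1 : ∀ s < n, elem (gen M) Ls (act Ls s 0) = gen M s := fun s hs => by
    rw [← elem_act _ hm hc hR s (hn ▸ hs) 0 (card_pos hc), elem_zero, one_mul]
  have hstart : ∀ x ∈ actWord Ls (List.range n) 0 :: T.map (fun i => act Ls i.val 0),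
      x < card Ls ∧ elem (gen M) Ls x ∈ H := by
    intro x hx
    rcases List.mem_cons.1 hx with rfl | hx
    · have hw : ∀ a ∈ List.range n, a < Ls.length := fun a ha => hn ▸ List.mem_range.1 ha
      refine ⟨actWord_mem (fun s hs => act_lt hc s hs) hw (card_pos hc), ?_⟩
      rw [← elem_actWord _ hm hc hR _ hw 0 (card_pos hc), elem_zero, one_mul]
      refine Subgroup.subset_closure (Or.inl ?_)
      rw [prod_finRange]
      rfl
    · obtain ⟨i, hi, rfl⟩ := List.mem_map.1 hx
      refine ⟨act_lt hc _ (hn ▸ i.isLt) 0 (card_pos hc), ?_⟩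
      rw [hs1 _ i.isLt, gen_val]
      exact Subgroup.subset_closure (Or.inr ⟨i, hi, rfl⟩)
  rw [eq_top_iff, ← M.toCoxeterSystem.subgroup_closure_range_simple, Subgroup.closure_le]
  rintro _ ⟨i, rfl⟩
  have := (progRun_mem (gen M) hm hc hR H p _ hstart _ (hchk i.val i.isLt)).2
  rwa [hs1 _ i.isLt, gen_val] at this

end Cfsg.Agent.Spec.CoxCenter
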